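import Cfsg.Agent.H390.L8.Dual
import Cfsg.Agent.H624.L8.KTwo
import Cfsg.Agent.H624.L8.Gen

/-!
# S4879, row `E₈`, box K3 (helper624): an `11`-element of the subgroup of type `A₄`, irreducible on `R`
-/

set_option autoImplicit false
set_option linter.unusedSectionVars false

namespace Cfsg.Agent.H624.L8

open Cfsg CoxeterSystem Cfsg.Agent.ChevalleyStructure.CoxeterGeom Cfsg.Agent.Tits.Roots Cfsg.Agent.Tits.Core
  Cfsg.Agent.Tits.RootComb Cfsg.Agent.Nodes.Reps Cfsg.Agent.Nodes.BNOf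
  Cfsg.Agent.Nodes.StabComb Cfsg.Agent.Nodes.Bruhat Cfsg.Agent.Nodes.LeviDec Cfsg.Agent.H35.Poin
  Cfsg.Agent.H35.PoinNum Cfsg.Agent.H35.ExcIdx
  Cfsg.Agent.ChevalleyStructure.CoxeterGeomTypes Cfsg.Lie
open Cfsg.Agent.Nodes.RGDChev Cfsg.Agent.ChevalleyStructure.NPerm
open Cfsg.Agent.ChevalleyStructure Cfsg.Agent.ChevalleyStructure.Elts
open Cfsg.Agent.ChevalleyStructure.Columns Cfsg.Agent.ChevalleyStructure.RootVec
open Cfsg.Agent.H596.L8
open Cfsg.Agent.H390.L8 (blk_mul blk_one blk_pow blk_mul_inv blk_neg_charpoly)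

universe u

variable {K : Type u} [Field K]

/-- the five coordinates -/
abbrev R5 : Type := {i : chevE8.Idx // InR 1 i}

/-- the list of the five roots -/
def lst : List ℕ := [200, 210, 214, 219, 226]

theorem lst_lt : ∀ s ∈ lst, s < 240 := by decide

theorem inR_lst : ∀ s : Fin chevE8.nroots, InR 1 (Sum.inr s : chevE8.Idx) ↔ (s : ℕ) ∈ lst := by
  decide +kernel

/-- the number of a coordinate -/
def ix (i : R5) : ℕ := match i.1 with
  | Sum.inl _ => 0
  | Sum.inr s => s.val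

theorem not_inl (i : Fin chevE8.rank) : ¬ dg (Sum.inl i) 4 = 3 * 1 := by
  show ¬ (0 : ℤ) = 3 * 1
  norm_num

theorem exists_inr (i : R5) : ∃ s : Fin chevE8.nroots, i.1 = Sum.inr s := by
  obtain ⟨i, hi⟩ := i
  rcases i with i | s
  · exact absurd hi.1 (not_inl i)
  · exact ⟨s, rfl⟩

theorem ix_mem (i : R5) : ix i ∈ lst := by
  obtain ⟨i, hi⟩ := i
  rcases i with i | s
  · exact absurd hi.1 (not_inl i)
  · exact (inR_lst s).1 hi

theorem ix_inj {i j : R5} (h : ix i = ix j) : i = j := by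
  obtain ⟨i, hi⟩ := i
  obtain ⟨j, hj⟩ := j
  rcases i with i | s
  · exact absurd hi.1 (not_inl i)
  rcases j with j | t
  · exact absurd hj.1 (not_inl j)
  exact Subtype.ext (congrArg Sum.inr (Fin.ext h))

/-- the coordinate with number `s` -/
def pt (s : ℕ) (hs : s ∈ lst) : R5 := ⟨Sum.inr ⟨s, lst_lt s hs⟩, (inR_lst ⟨s, lst_lt s hs⟩).2 hs⟩

theorem ix_pt (s : ℕ) (hs : s ∈ lst) : ix (pt s hs) = s := rfl

theorem pt_ix (i : R5) : pt (ix i) (ix_mem i) = i := ix_inj rfl

theorem card_R5 : Fintype.card R5 = 5 := by decide +kernel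

/-- the table -/
def Tab (r a b : ℕ) : Prop := ∀ s ∈ lst, s ≠ r ∧ s ≠ chevE8.negIdx.getD r 0 ∧
  chevE8.chainEntry r s = if s = a then [(b, 1)] else []

instance (r a b : ℕ) : Decidable (Tab r a b) := inferInstanceAs (Decidable (∀ s ∈ lst, _))

theorem tab : Tab 162 219 226 ∧ Tab 141 200 210 ∧ Tab 135 214 219 ∧ Tab 130 210 214 ∧
    Tab 77 226 219 ∧ Tab 98 210 200 ∧ Tab 104 219 214 ∧ Tab 109 214 210 := by
  decide +kernel

theorem blk_x {r a b : ℕ} (hr : r < 240) (h : Tab r a b) (ha : a ∈ lst) (hb : b ∈ lst) (t : K)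
    (g : chevE8.group K) (hg : mt g = chevE8.x K r t) :
    blk 1 g = Matrix.transvection (pt b hb) (pt a ha) t := by
  ext i j
  obtain ⟨u, hu⟩ := exists_inr i
  obtain ⟨s, hs⟩ := exists_inr j
  have hij : ∀ i' : R5, ∀ u' : Fin chevE8.nroots, i'.1 = Sum.inr u' → ix i' = u'.val := by
    intro i' u' h'
    unfold ix
    rw [h']
  have hsl : s.val ∈ lst := hij j s hs ▸ ix_mem j
  obtain ⟨h1, h2, h3⟩ := h s.val hsl
  show mt g i.1 j.1 = _
  have h1' : ¬ s = ⟨r, hr⟩ := fun e => h1 (congrArg Fin.val e)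
  rw [hg, Cfsg.Agent.ChevalleyStructure.Good.x_eq_xMat r hr, hu, hs, xMat_inr_inr]
  rw [if_neg h1']
  rw [if_neg h2]
  rw [chainCoeff_sum chevE8 r (Cfsg.Agent.H597.E8Form.good r hr).sorted, h3]
  unfold Matrix.transvection
  rw [Matrix.add_apply, Matrix.one_apply]
  have e1 : (i = j) ↔ u = s := by
    constructor
    · intro e
      have := hu.symm.trans ((congrArg Subtype.val e).trans hs)
      exact Sum.inr.inj this
    · intro e
      exact Subtype.ext (hu.trans ((congrArg Sum.inr e).trans hs.symm))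
  refine congrArg₂ (· + ·) ?_ ?_
  · exact if_congr e1.symm rfl rfl
  · rw [Matrix.single_apply]
    have e2 : (pt b hb = i) ↔ b = u.val := by
      rw [← hij i u hu]
      exact ⟨fun e => by rw [← e, ix_pt], fun e => ix_inj (by rw [ix_pt, e])⟩
    have e3 : (pt a ha = j) ↔ s.val = a := by
      rw [← hij j s hs]
      exact ⟨fun e => by rw [← e, ix_pt], fun e => ix_inj (by rw [ix_pt, e])⟩
    by_cases c1 : s.val = a
    · rw [if_pos c1, chSum_cons, chSum_nil]
      by_cases c2 : b = u.val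
      · rw [if_pos c2, if_pos ⟨e2.2 c2, e3.2 c1⟩]
        simp
      · rw [if_neg c2, if_neg (fun c => c2 (e2.1 c.1))]
        simp
    · rw [if_neg c1, chSum_nil, if_neg (fun c => c1 (e3.1 c.2))]

/-- the block as a homomorphism -/
noncomputable def bt (K : Type u) [Field K] : SA K →* (Matrix R5 R5 K)ˣ :=
  MonoidHom.toHomUnits
    { toFun := fun g => blk 1 (g : chevE8.group K)
      map_one' := blk_one 1
      map_mul' := fun a _ => blk_mul 1 a.2 _ }

theorem coe_bt (g : SA K) : ((bt K g : (Matrix R5 R5 K)ˣ) : Matrix R5 R5 K) = blk 1 (g : chevE8.group K) := rfl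

theorem has_of {r a b : ℕ} (hr : r < 240) (h : Tab r a b) (ha : a ∈ lst) (hb : b ∈ lst)
    (hm : (chevE8.rootSubgroup K r).subgroupOf (chevE8.group K) ≤ SA K) :
    Has (bt K).range (pt b hb) (pt a ha) := by
  refine Or.inr fun t => ?_
  have hmem : xG hpE8.inList r t ∈ chevE8.group K :=
    Subgroup.subset_closure ⟨⟨r, hr⟩, t, by
      rw [coe_xG, Cfsg.Agent.ChevalleyStructure.Good.x_eq_xMat r hr]⟩
  have h1 : (⟨xG hpE8.inList r t, hmem⟩ : chevE8.group K) ∈ SA K := hm (by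
    rw [Subgroup.mem_subgroupOf, mem_rootSubgroup_iff hpE8.inList]
    exact ⟨t, rfl⟩)
  refine ⟨bt K ⟨_, h1⟩, ⟨_, rfl⟩, ?_⟩
  rw [coe_bt]
  exact blk_x hr h ha hb t _ rfl

theorem le_SA_pos {j : Fin 8} (hj : (j : ℕ) < 4) :
    (chevE8.rootSubgroup K (chevE8.simple j)).subgroupOf (chevE8.group K) ≤ SA K := by
  refine le_trans ?_ (le_iSup (fun j : {j : Fin 8 // (j : ℕ) < 4} =>
    XX chevE8 8 K (sr j.1) ⊔ XX chevE8 8 K (-sr j.1)) ⟨j, hj⟩)
  refine le_trans (le_of_eq ?_) le_sup_left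
  show _ = (XV chevE8 8 K (sr j)).subgroupOf _
  rw [XV_sr hpE8]

theorem le_SA_neg {j : Fin 8} (hj : (j : ℕ) < 4) :
    (chevE8.rootSubgroup K (chevE8.neg (chevE8.simple j))).subgroupOf (chevE8.group K) ≤ SA K := by
  refine le_trans ?_ (le_iSup (fun j : {j : Fin 8 // (j : ℕ) < 4} =>
    XX chevE8 8 K (sr j.1) ⊔ XX chevE8 8 K (-sr j.1)) ⟨j, hj⟩)
  refine le_trans (le_of_eq ?_) le_sup_right
  show _ = (XV chevE8 8 K (-sr j)).subgroupOf _
  rw [XV_neg_sr hpE8]

theorem simples : chevE8.simple 0 = 162 ∧ chevE8.simple 1 = 141 ∧ chevE8.simple 2 = 135 ∧ chevE8.simple 3 = 130 ∧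
    chevE8.neg 162 = 77 ∧ chevE8.neg 141 = 98 ∧ chevE8.neg 135 = 104 ∧ chevE8.neg 130 = 109 := by
  decide +kernel

theorem has_all (a b : R5) : Has (bt K).range a b := by
  obtain ⟨s0, s1, s2, s3, n0, n1, n2, n3⟩ := simples
  obtain ⟨t0, t1, t2, t3, u0, u1, u2, u3⟩ := tab
  have p0 := le_SA_pos (K := K) (j := 0) (by decide)
  have p1 := le_SA_pos (K := K) (j := 1) (by decide)
  have p2 := le_SA_pos (K := K) (j := 2) (by decide)
  have p3 := le_SA_pos (K := K) (j := 3) (by decide)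
  have q0 := le_SA_neg (K := K) (j := 0) (by decide)
  have q1 := le_SA_neg (K := K) (j := 1) (by decide)
  have q2 := le_SA_neg (K := K) (j := 2) (by decide)
  have q3 := le_SA_neg (K := K) (j := 3) (by decide)
  change (chevE8.rootSubgroup K (chevE8.simple 0)).subgroupOf (chevE8.group K) ≤ SA K at p0
  change (chevE8.rootSubgroup K (chevE8.simple 1)).subgroupOf (chevE8.group K) ≤ SA K at p1
  change (chevE8.rootSubgroup K (chevE8.simple 2)).subgroupOf (chevE8.group K) ≤ SA K at p2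
  change (chevE8.rootSubgroup K (chevE8.simple 3)).subgroupOf (chevE8.group K) ≤ SA K at p3
  change (chevE8.rootSubgroup K (chevE8.neg (chevE8.simple 0))).subgroupOf (chevE8.group K) ≤ SA K at q0
  change (chevE8.rootSubgroup K (chevE8.neg (chevE8.simple 1))).subgroupOf (chevE8.group K) ≤ SA K at q1
  change (chevE8.rootSubgroup K (chevE8.neg (chevE8.simple 2))).subgroupOf (chevE8.group K) ≤ SA K at q2
  change (chevE8.rootSubgroup K (chevE8.neg (chevE8.simple 3))).subgroupOf (chevE8.group K) ≤ SA K at q3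
  rw [s0] at p0 q0
  rw [s1] at p1 q1
  rw [s2] at p2 q2
  rw [s3] at p3 q3
  rw [n0] at q0
  rw [n1] at q1
  rw [n2] at q2
  rw [n3] at q3
  have m0 : (200 : ℕ) ∈ lst := by decide
  have m1 : (210 : ℕ) ∈ lst := by decide
  have m2 : (214 : ℕ) ∈ lst := by decide
  have m3 : (219 : ℕ) ∈ lst := by decide
  have m4 : (226 : ℕ) ∈ lst := by decide
  -- upwards
  have a1 : Has (bt K).range (pt 210 m1) (pt 200 m0) := has_of (by norm_num) t1 m0 m1 p1
  have a2 : Has (bt K).range (pt 214 m2) (pt 210 m1) := has_of (by norm_num) t3 m1 m2 p3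
  have a3 : Has (bt K).range (pt 219 m3) (pt 214 m2) := has_of (by norm_num) t2 m2 m3 p2
  have a4 : Has (bt K).range (pt 226 m4) (pt 219 m3) := has_of (by norm_num) t0 m3 m4 p0
  -- downwards
  have b1 : Has (bt K).range (pt 200 m0) (pt 210 m1) := has_of (by norm_num) u1 m1 m0 q1
  have b2 : Has (bt K).range (pt 210 m1) (pt 214 m2) := has_of (by norm_num) u3 m2 m1 q3
  have b3 : Has (bt K).range (pt 214 m2) (pt 219 m3) := has_of (by norm_num) u2 m3 m2 q2
  have b4 : Has (bt K).range (pt 219 m3) (pt 226 m4) := has_of (by norm_num) u0 m4 m3 q0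
  have key : ∀ s (hs : s ∈ lst), Has (bt K).range (pt s hs) (pt 200 m0) ∧ Has (bt K).range (pt 200 m0) (pt s hs) := by
    intro s hs
    have hs' := hs
    simp only [lst, List.mem_cons, List.not_mem_nil, or_false] at hs'
    rcases hs' with rfl | rfl | rfl | rfl | rfl
    · exact ⟨Or.inl rfl, Or.inl rfl⟩
    · exact ⟨a1, b1⟩
    · exact ⟨a2.trans a1, b1.trans b2⟩
    · exact ⟨a3.trans (a2.trans a1), b1.trans (b2.trans b3)⟩
    · exact ⟨a4.trans (a3.trans (a2.trans a1)), b1.trans (b2.trans (b3.trans b4))⟩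
  rw [← pt_ix a, ← pt_ix b]
  exact (key _ (ix_mem a)).1.trans (key _ (ix_mem b)).2

theorem eleven_dvd [Fintype K] (ho : orderOf ((Fintype.card K : ℕ) : ZMod 11) = 5) :
    11 ∣ Nat.card (bt K).range := by
  have m0 : (200 : ℕ) ∈ lst := by decide
  have m1 : (210 : ℕ) ∈ lst := by decide
  have hne : pt 210 m1 ≠ pt 200 m0 := fun e => absurd (congrArg ix e) (by rw [ix_pt, ix_pt]; norm_num)
  have h1 := dvd_card (K := K) (H := (bt K).range) has_all hne
  rw [card_R5] at h1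
  refine dvd_trans ?_ h1
  have h2 : (((Fintype.card K ^ 5 : ℕ)) : ZMod 11) = ((1 : ℕ) : ZMod 11) := by
    rw [Nat.cast_pow, Nat.cast_one, ← ho]
    exact pow_orderOf_eq_one _
  rw [ZMod.natCast_eq_natCast_iff] at h2
  exact (Nat.modEq_iff_dvd' (Nat.one_le_pow _ _ Fintype.card_pos)).1 h2.symm

/-- **K3** -/
theorem k3 (K : Type u) [Field K] [Fintype K] : K3 K := by
  intro ho
  have h11 : Fact (Nat.Prime 11) := ⟨by norm_num⟩
  obtain ⟨⟨h, y, rfl⟩, hh⟩ := exists_prime_orderOf_dvd_card' (G := (bt K).range) 11 (eleven_dvd ho)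
  have hy : orderOf (bt K y) = 11 := by
    rw [← hh, ← Subgroup.orderOf_coe]
  -- the `11`-part
  have h0 : orderOf y ≠ 0 := (orderOf_pos y).ne'
  set m := orderOf y / 11 ^ (orderOf y).factorization 11 with hm
  have hm0 : ¬ 11 ∣ m := Nat.not_dvd_ordCompl h11.out h0
  have hmd : m ∣ orderOf y := Nat.ordCompl_dvd _ _
  refine ⟨(y ^ m : SA K), (y ^ m).2, ⟨(orderOf y).factorization 11, ?_⟩, ?_⟩
  · rw [Subgroup.orderOf_coe, orderOf_pow_of_dvd (fun e => hm0 (by rw [e]; exact dvd_zero 11)) hmd]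
    exact Nat.div_div_self (Nat.ordProj_dvd _ _) h0
  · have hc : (11 : ℕ).Coprime m := (Nat.Prime.coprime_iff_not_dvd h11.out).2 hm0
    have hb : orderOf (bt K (y ^ m)) = 11 := by
      rw [map_pow]
      rw [← hy] at hc
      rw [hc.orderOf_pow, hy]
    have e1 : blk 1 ((y ^ m : SA K) : chevE8.group K) ^ 11 = 1 := by
      have h5 := pow_orderOf_eq_one (bt K (y ^ m))
      rw [hb] at h5
      have h6 := congrArg Units.val h5
      rw [Units.val_pow_eq_pow_val, Units.val_one, coe_bt] at h6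
      exact h6
    have e2 : blk 1 ((y ^ m : SA K) : chevE8.group K) ≠ 1 := by
      intro h5
      have h6 : bt K (y ^ m) = 1 := Units.ext (by rw [coe_bt, h5, Units.val_one])
      rw [h6, orderOf_one] at hb
      exact absurd hb (by norm_num)
    obtain ⟨r1, r2⟩ := k2 ho (blk 1 ((y ^ m : SA K) : chevE8.group K)) (blk 1 ((y ^ m : SA K) : chevE8.group K)⁻¹)
      card_R5 e1 e2 (blk_mul_inv 1 (y ^ m).2)
    refine ⟨r1, ?_⟩
    rw [blk_neg_charpoly]
    exact r2

end Cfsg.Agent.H624.L8
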